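import Cfsg.Agent.ZassAbelian.Sharp
import Cfsg.Agent.PermGroups.SharplyTwo

/-!
The setting attached to a sharply triply transitive group.
-/

set_option autoImplicit false
set_option linter.style.haveILetI false
set_option linter.unusedSectionVars false

namespace CfsgLib.ZassAbelian

open MulAction

variable {G Ω : Type*} [Group G] [MulAction G Ω]

theorem eq_one_of_sharp_three (hsharp : ∀ x : Fin 3 ↪ Ω, stabilizer G x = ⊥) {g : G} {a b c : Ω}
    (hab : a ≠ b) (hbc : b ≠ c) (hac : a ≠ c) (ha : g • a = a) (hb : g • b = b) (hc : g • c = c) :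
    g = 1 := by
  have hinj : Function.Injective ![a, b, c] := by
    intro x y h
    fin_cases x <;> fin_cases y <;> simp_all
  rw [← Subgroup.mem_bot, ← hsharp ⟨![a, b, c], hinj⟩, mem_stabilizer_iff]
  ext x
  fin_cases x
  · exact ha
  · exact hb
  · exact hc

/-- A sharply triply transitive group is a setting with `d = q - 1` and `q` a prime power. -/
theorem exists_setting_of_sharp_three [Finite G] [Finite Ω]
    (h3 : IsMultiplyPretransitive G Ω 3) (hsharp : ∀ x : Fin 3 ↪ Ω, stabilizer G x = ⊥)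
    (hΩ : 3 ≤ Nat.card Ω) {i o : Ω} (hio : i ≠ o) :
    ∃ (D : Setting G Ω) (p j : ℕ), D.i = i ∧ D.o = o ∧ p.Prime ∧ 1 ≤ j ∧
      Nat.card D.F = p ^ j ∧ Nat.card D.H = Nat.card D.F - 1 ∧ ∀ u ∈ D.F, u ^ p = 1 := by
  classical
  haveI := Fintype.ofFinite Ω
  haveI h2 : IsMultiplyPretransitive G Ω 2 :=
    isMultiplyPretransitive_of_le' (G := G) (α := Ω) (show 2 ≤ 3 by norm_num)
      (by rw [ENat.card_eq_coe_natCard]; exact_mod_cast hΩ)
  haveI := isPretransitive_of_is_two_pretransitive (h2 := h2)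
  obtain ⟨c, hc⟩ : ∃ c : Ω, c ∉ ({i, o} : Finset Ω) := by
    by_contra h
    push Not at h
    have := Finset.card_le_card (show (Finset.univ : Finset Ω) ⊆ {i, o} from fun x _ => h x)
    rw [Finset.card_univ, Finset.card_pair hio, ← Nat.card_eq_fintype_card] at this
    omega
  simp only [Finset.mem_insert, Finset.mem_singleton, not_or] at hc
  let S := stabilizer G i
  let X := SubMulAction.ofStabilizer G i
  have hX2 : IsMultiplyPretransitive S X 2 :=
    SubMulAction.ofStabilizer.isMultiplyPretransitive.mp h3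
  have hval : ∀ (s : S) (x : X), ((s • x : X) : Ω) = (s : G) • (x : Ω) := fun _ _ => rfl
  have hsh2 : ∀ x : Fin 2 ↪ X, stabilizer S x = ⊥ := by
    intro x
    rw [Subgroup.eq_bot_iff_forall]
    intro s hs
    have h : ∀ k, s • x k = x k := fun k => congrArg (fun f : Fin 2 ↪ X => f k) hs
    refine Subtype.ext (eq_one_of_sharp_three hsharp (a := i) (b := (x 0 : Ω)) (c := (x 1 : Ω))
      (fun e => (x 0).2 e.symm) (fun e => ?_) (fun e => (x 1).2 e.symm) s.2
      (congrArg Subtype.val (h 0)) (congrArg Subtype.val (h 1)))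
    exact absurd (x.injective (Subtype.ext e)) (by decide)
  have hXcard : Nat.card X = Nat.card Ω - 1 := by
    rw [SubMulAction.nat_card_ofStabilizer_eq]
  obtain ⟨K, p, j, hp, hj, hcardX, hKn, hKc, hKexp, hKt, hKfree, hKcard, -⟩ :=
    CfsgLib.PermGroups.exists_regular_normal_of_sharply_two hX2 hsh2 (by omega)
  let F : Subgroup G := K.map S.subtype
  have hmemF : ∀ {u : G}, u ∈ F ↔ ∃ k ∈ K, (k : G) = u := fun {u} => Subgroup.mem_map
  let D : Setting G Ω :=
    { i := i
      o := o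
      io := hio
      pair := fun a b c' d hab hcd => (is_two_pretransitive_iff.mp h2) hab hcd
      three := fun g a b c' hab hbc hac ha hb hc' =>
        eq_one_of_sharp_three hsharp hab hbc hac ha hb hc'
      third := ⟨c, hc.1, hc.2⟩
      F := F
      Fle := fun u hu => by
        obtain ⟨k, -, rfl⟩ := hmemF.1 hu
        exact k.2
      Fnorm := fun g hg u hu => by
        obtain ⟨k, hk, rfl⟩ := hmemF.1 hu
        exact hmemF.2 ⟨⟨g, hg⟩ * k * ⟨g, hg⟩⁻¹, hKn.conj_mem k hk _, rfl⟩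
      Fcomm := fun u hu v hv => by
        obtain ⟨k, hk, rfl⟩ := hmemF.1 hu
        obtain ⟨k', hk', rfl⟩ := hmemF.1 hv
        exact congrArg (fun t : K => ((t : S) : G)) (hKc.is_comm.comm (⟨k, hk⟩ : K) ⟨k', hk'⟩)
      reg := fun y z hy hz => by
        obtain ⟨⟨k, hk⟩, e⟩ := exists_smul_eq K (⟨y, hy⟩ : X) ⟨z, hz⟩
        exact ⟨k, hmemF.2 ⟨k, hk, rfl⟩, congrArg Subtype.val e⟩
      free := fun u hu y hy e => by
        obtain ⟨k, hk, rfl⟩ := hmemF.1 hu
        have h1 : (⟨k, hk⟩ : K) ∈ stabilizer K (⟨y, hy⟩ : X) := Subtype.ext e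
        rw [hKfree, Subgroup.mem_bot] at h1
        exact congrArg (fun t : K => ((t : S) : G)) h1 }
  have hFc : Nat.card D.F = Nat.card Ω - 1 := by
    show Nat.card F = _
    rw [Subgroup.card_map_of_injective S.subtype_injective, hKcard, hXcard]
  refine ⟨D, p, j, rfl, rfl, hp, hj, ?_, ?_, fun u hu => ?_⟩
  · rw [hFc, ← hXcard, hcardX]
  · rw [hFc]
    have h1 := CfsgLib.PermGroups.card_stabilizer_of_sharply_two hX2 hsh2 (by omega)
      (⟨o, hio.symm⟩ : X)
    rw [hXcard] at h1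
    rw [← h1]
    refine Nat.card_eq_of_bijective (fun h => ⟨⟨(h : G), (D.mem_H.1 h.2).1⟩,
      Subtype.ext (D.mem_H.1 h.2).2⟩) ⟨fun x y e => Subtype.ext ?_, ?_⟩
    · exact congrArg (fun t : stabilizer S (⟨o, hio.symm⟩ : X) => ((t : S) : G)) e
    · rintro ⟨s, hs⟩
      exact ⟨⟨(s : G), D.mem_H.2 ⟨s.2, congrArg Subtype.val hs⟩⟩, rfl⟩
  · obtain ⟨k, hk, rfl⟩ := hmemF.1 hu
    rw [← Subgroup.coe_pow, hKexp k hk, Subgroup.coe_one]

end CfsgLib.ZassAbelian
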